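/-
S0518 (coordinator helper12), package [Card]: orders of `P₁ ⊓ H` and `T ⊓ H`, `H = oddGen G`.
-/
import Cfsg.Agent.Lib.Helper12.KS.Defs

set_option autoImplicit false
open Cfsg

namespace Cfsg.Agent.Lib.Helper11.KS

open Cfsg.Agent.Lib.Helper12.KS

universe u

theorem pkgCard (hO1 : PkgO1.{u}) (hO2 : PkgO2.{u}) (hT0 : PkgT0.{u}) : PkgCard.{u} := by
  intro G _ _ P₁ P₂ T Q₁ Q₂ W₁ W₂ c₁ c₂ h hc
  have hb := hO1 h.side₁
  have ho1 := hO2 h.side₁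
  have ho2 := hO2 h.side₂
  have ht0 := hT0 h
  have hT0H : W₁ ⊔ W₂ ≤ oddGen G := sup_le ho1.W_le ho2.W_le
  have hTH : T ⊓ oddGen G = W₁ ⊔ W₂ := by
    apply le_antisymm
    · rintro t ⟨htT, htH⟩
      rcases ht0.cover t htT with h1 | h1
      · exact h1
      · exfalso
        apply hc
        have e : c₁ = t⁻¹ * (t * c₁) := by group
        rw [e]
        exact (oddGen G).mul_mem ((oddGen G).inv_mem htH) (hT0H h1)
    · exact le_inf ht0.le hT0H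
  refine ⟨?_, hTH⟩
  have hK48 : Nat.card ↥(P₁ ⊓ oddGen G) ∣ 48 := hb.card_P ▸ Subgroup.card_dvd_of_le inf_le_left
  have h8 : 8 ∣ Nat.card ↥(P₁ ⊓ oddGen G) :=
    ht0.card ▸ Subgroup.card_dvd_of_le (le_inf (ht0.le.trans hb.T_le_P) hT0H)
  have h3 : 3 ∣ Nat.card ↥(P₁ ⊓ oddGen G) := by
    obtain ⟨g, hgP, hg3⟩ := ho1.three
    have hgH : g ∈ oddGen G := Subgroup.subset_closure (by
      show Odd (orderOf g)
      rw [hg3]
      decide)
    have h3' : orderOf (⟨g, hgP, hgH⟩ : ↥(P₁ ⊓ oddGen G)) = 3 := by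
      rw [← hg3]
      exact Subgroup.orderOf_mk _ _
    rw [← h3']
    exact orderOf_dvd_natCard _
  have hne : Nat.card ↥(P₁ ⊓ oddGen G) ≠ 48 := by
    intro h48
    have hKP : P₁ ⊓ oddGen G = P₁ :=
      Subgroup.eq_of_le_of_card_ge inf_le_left (by rw [h48, hb.card_P])
    apply hc
    have hc1 : c₁ ∈ P₁ ⊓ oddGen G := by
      rw [hKP]
      exact h.side₁.c_mem
    exact hc1.2
  have h24 : 24 ∣ Nat.card ↥(P₁ ⊓ oddGen G) :=
    Nat.Coprime.mul_dvd_of_dvd_of_dvd (by norm_num : Nat.Coprime 8 3) h8 h3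
  have hle := Nat.le_of_dvd (by norm_num) hK48
  have hpos : 0 < Nat.card ↥(P₁ ⊓ oddGen G) := Nat.card_pos
  obtain ⟨m, hm⟩ := h24
  omega

end Cfsg.Agent.Lib.Helper11.KS
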