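/-
S0518 (coordinator helper12), package [SP]: a 2-subgroup containing `T` meets `P₁` in `T`.
Also two small general helpers used by the other `Helper11.KS` packages.
-/
import Cfsg.Agent.Lib.Helper12.KS.Defs

set_option autoImplicit false
open Cfsg

namespace Cfsg.Agent.Lib.Helper11.KS

open Cfsg.Agent.Lib.Helper12.KS

universe u

/-- In a finite group, an element conjugating a subgroup into itself normalizes it. -/
theorem mem_normalizer_of_conj_mem {G : Type u} [Group G] [Finite G] (Q : Subgroup G) (g : G)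
    (h : ∀ q ∈ Q, g * q * g⁻¹ ∈ Q) : g ∈ Subgroup.normalizer (Q : Set G) := by
  rw [Subgroup.mem_normalizer_iff_map_conj_eq]
  apply Subgroup.eq_of_le_of_card_ge
  · rintro _ ⟨q, hq, rfl⟩
    exact h q hq
  · rw [Subgroup.card_map_of_injective (MulAut.conj g).injective]

/-- Conjugation carries a join into the join of the targets. -/
theorem conj_sup_mem {G : Type u} [Group G] {A B A' B' : Subgroup G} (x : G)
    (hA : ∀ a ∈ A, x * a * x⁻¹ ∈ A') (hB : ∀ b ∈ B, x * b * x⁻¹ ∈ B') :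
    ∀ g ∈ A ⊔ B, x * g * x⁻¹ ∈ A' ⊔ B' := by
  have hle : A ⊔ B ≤ (A' ⊔ B').comap (MulAut.conj x).toMonoidHom := by
    apply sup_le
    · intro a ha
      exact Subgroup.mem_comap.mpr (Subgroup.mem_sup_left (hA a ha))
    · intro b hb
      exact Subgroup.mem_comap.mpr (Subgroup.mem_sup_right (hB b hb))
  intro g hg
  exact Subgroup.mem_comap.mp (hle hg)

theorem pkgSP (hO1 : PkgO1.{u}) : PkgSP.{u} := by
  intro G _ _ P₁ P₂ T Q₁ Q₂ W₁ W₂ c₁ c₂ h S hS hTS
  have hb := hO1 h.side₁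
  have hle : T ≤ S ⊓ P₁ := le_inf hTS hb.T_le_P
  have h2 : IsPGroup 2 ↥(S ⊓ P₁) := hS.to_le inf_le_left
  obtain ⟨k, hk⟩ := IsPGroup.iff_card.mp h2
  have hdvd : Nat.card ↥(S ⊓ P₁) ∣ 48 := hb.card_P ▸ Subgroup.card_dvd_of_le inf_le_right
  have h16 : 16 ∣ Nat.card ↥(S ⊓ P₁) := hb.card_T ▸ Subgroup.card_dvd_of_le hle
  have hcard : Nat.card ↥(S ⊓ P₁) = 16 := by
    rw [hk] at hdvd h16 ⊢
    have hk6 : k < 6 := by
      by_contra hc
      have h1 : 2 ^ 6 ≤ 2 ^ k := Nat.pow_le_pow_right (by norm_num) (by omega)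
      have h2 := Nat.le_of_dvd (by norm_num) hdvd
      omega
    interval_cases k <;> first | (norm_num; done) | (norm_num at h16; done) | (norm_num at hdvd; done)
  exact (Subgroup.eq_of_le_of_card_ge hle (by rw [hcard, hb.card_T])).symm

end Cfsg.Agent.Lib.Helper11.KS
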