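/-
S0518 (coordinator helper12), package [SylD]: `T` has index at most 2 in every 2-subgroup
containing it.
-/
import Cfsg.Agent.Lib.Helper11.KS.SP

set_option autoImplicit false
open Cfsg

namespace Cfsg.Agent.Lib.Helper11.KS

open Cfsg.Agent.Lib.Helper12.KS

universe u

theorem pkgSylD (hNrm : PkgNrm.{u}) (hSP : PkgSP.{u}) (hA : PkgSylA.{u}) (hC : PkgSylC.{u}) :
    PkgSylD.{u} := by
  intro G _ _ P₁ P₂ T Q₁ Q₂ W₁ W₂ c₁ c₂ h S hS hTS x hxS hxT s hsS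
  by_cases hsT : s ∈ T
  · exact Or.inl hsT
  right
  have hx'S : x⁻¹ ∈ S := S.inv_mem hxS
  have hx'T : x⁻¹ ∉ T := fun hh => hxT (by simpa using T.inv_mem hh)
  have h1 := (hA h S hS hTS x⁻¹ hx'S hx'T (hC h S hS hTS x⁻¹ hx'S)).1
  have h2 := (hA h S hS hTS s hsS hsT (hC h S hS hTS s hsS)).2
  have hnorm : s * x⁻¹ ∈ Subgroup.normalizer (Q₁ : Set G) := by
    apply mem_normalizer_of_conj_mem
    intro q hq
    have h3 := h2 _ (h1 q hq)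
    have e : s * x⁻¹ * q * (s * x⁻¹)⁻¹ = s * (x⁻¹ * q * x⁻¹⁻¹) * s⁻¹ := by group
    rw [e]
    exact h3
  rw [(hNrm h.max₁ h.side₁).1] at hnorm
  have hmem : s * x⁻¹ ∈ S ⊓ P₁ := ⟨S.mul_mem hsS hx'S, hnorm⟩
  rw [hSP h S hS hTS] at hmem
  exact hmem

end Cfsg.Agent.Lib.Helper11.KS
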