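/-
S0518 (coordinator helper12), package [U]: every 2-subgroup `S ≥ T` has a subgroup `U` of index 2
with `U ⊓ T = T₀ = W₁ ⊔ W₂`.
-/
import Cfsg.Agent.Lib.Helper11.KS.SP

set_option autoImplicit false
open Cfsg

namespace Cfsg.Agent.Lib.Helper11.KS

open Cfsg.Agent.Lib.Helper12.KS

universe u

/-- The subgroup `T₀ ∪ T₀ x` for `x` normalizing `T₀` with `x² ∈ T₀`. -/
def extSub {G : Type u} [Group G] (T₀ : Subgroup G) (x : G)
    (hn : ∀ a ∈ T₀, x * a * x⁻¹ ∈ T₀) (hn' : ∀ a ∈ T₀, x⁻¹ * a * x ∈ T₀) (hsq : x * x ∈ T₀) :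
    Subgroup G where
  carrier := {u | u ∈ T₀ ∨ u * x⁻¹ ∈ T₀}
  one_mem' := Or.inl T₀.one_mem
  mul_mem' := by
    rintro u v (hu | hu) (hv | hv)
    · exact Or.inl (T₀.mul_mem hu hv)
    · right
      have e : u * v * x⁻¹ = u * (v * x⁻¹) := by group
      rw [e]
      exact T₀.mul_mem hu hv
    · right
      have e : u * v * x⁻¹ = (u * x⁻¹) * (x * v * x⁻¹) := by group
      rw [e]
      exact T₀.mul_mem hu (hn v hv)
    · left
      have e : u * v = (u * x⁻¹) * (x * (v * x⁻¹) * x⁻¹) * (x * x) := by group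
      rw [e]
      exact T₀.mul_mem (T₀.mul_mem hu (hn _ hv)) hsq
  inv_mem' := by
    rintro u (hu | hu)
    · exact Or.inl (T₀.inv_mem hu)
    · right
      have e : u⁻¹ * x⁻¹ = (x⁻¹ * (u * x⁻¹)⁻¹ * x) * (x * x)⁻¹ := by group
      rw [e]
      exact T₀.mul_mem (hn' _ (T₀.inv_mem hu)) (T₀.inv_mem hsq)

theorem mem_extSub {G : Type u} [Group G] (T₀ : Subgroup G) (x : G)
    (hn : ∀ a ∈ T₀, x * a * x⁻¹ ∈ T₀) (hn' : ∀ a ∈ T₀, x⁻¹ * a * x ∈ T₀) (hsq : x * x ∈ T₀)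
    (u : G) : u ∈ extSub T₀ x hn hn' hsq ↔ u ∈ T₀ ∨ u * x⁻¹ ∈ T₀ := Iff.rfl

theorem pkgU (hO1 : PkgO1.{u}) (hT0 : PkgT0.{u}) (hW : PkgW.{u}) (hMap : PkgMap.{u})
    (hA : PkgSylA.{u}) (hC : PkgSylC.{u}) (hD : PkgSylD.{u}) (hX : PkgXsq.{u}) : PkgU.{u} := by
  intro G _ _ P₁ P₂ T Q₁ Q₂ W₁ W₂ c₁ c₂ h S hS hTS
  have hb := hO1 h.side₁
  have ht0 := hT0 h
  obtain ⟨w, hw⟩ := hW h
  have hc₁T : c₁ ∈ T := hb.Q_le_T hb.c_mem_Q
  have hwT0 : w ∈ W₁ ⊔ W₂ := Subgroup.mem_sup_left hw.w_mem₁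
  by_cases hST : ∀ s ∈ S, s ∈ T
  · -- `S = T`
    refine ⟨W₁ ⊔ W₂, ht0.le.trans hTS, ?_, inf_eq_left.mpr ht0.le⟩
    rw [Subgroup.relIndex_eq_two_iff_exists_notMem_and]
    refine ⟨c₁, hTS hc₁T, ht0.c₁_not, fun b hbS => ?_⟩
    rcases ht0.cover b (hST b hbS) with h1 | h1
    · exact Or.inr h1
    · exact Or.inl h1
  · push_neg at hST
    obtain ⟨x, hxS, hxT⟩ := hST
    -- elements of `S ∖ T` normalize `T₀`
    have hnorm : ∀ y ∈ S, y ∉ T → ∀ a ∈ W₁ ⊔ W₂, y * a * y⁻¹ ∈ W₁ ⊔ W₂ := by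
      intro y hyS hyT a ha
      have hsw := hA h S hS hTS y hyS hyT (hC h S hS hTS y hyS)
      have m1 := hMap h y hsw.1
      have m2 := hMap h.symm y hsw.2
      have := conj_sup_mem y m1.W m2.W a ha
      rwa [sup_comm] at this
    have hx'S : x⁻¹ ∈ S := S.inv_mem hxS
    have hx'T : x⁻¹ ∉ T := fun hh => hxT (by simpa using T.inv_mem hh)
    have hn : ∀ a ∈ W₁ ⊔ W₂, x * a * x⁻¹ ∈ W₁ ⊔ W₂ := hnorm x hxS hxT
    have hn' : ∀ a ∈ W₁ ⊔ W₂, x⁻¹ * a * x ∈ W₁ ⊔ W₂ := by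
      intro a ha
      have := hnorm x⁻¹ hx'S hx'T a ha
      simpa using this
    have hsq : x * x ∈ W₁ ⊔ W₂ := hX h S hS hTS x hxS hxT
    have hxc : x * c₁ * x⁻¹ = c₂ := by
      have hsw := hA h S hS hTS x hxS hxT (hC h S hS hTS x hxS)
      exact (hMap h x hsw.1).c
    refine ⟨extSub (W₁ ⊔ W₂) x hn hn' hsq, ?_, ?_, ?_⟩
    · intro u hu
      rcases (mem_extSub _ _ _ _ _ u).mp hu with h1 | h1
      · exact hTS (ht0.le h1)
      · have e : u = (u * x⁻¹) * x := by group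
        rw [e]
        exact S.mul_mem (hTS (ht0.le h1)) hxS
    · rw [Subgroup.relIndex_eq_two_iff_exists_notMem_and]
      refine ⟨c₁, hTS hc₁T, ?_, fun b hbS => ?_⟩
      · intro hcU
        rcases (mem_extSub _ _ _ _ _ c₁).mp hcU with h1 | h1
        · exact ht0.c₁_not h1
        · apply hxT
          have e : x = (c₁ * x⁻¹)⁻¹ * c₁ := by group
          rw [e]
          exact T.mul_mem (T.inv_mem (ht0.le h1)) hc₁T
      · by_cases hbT : b ∈ T
        · rcases ht0.cover b hbT with h1 | h1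
          · exact Or.inr ((mem_extSub _ _ _ _ _ b).mpr (Or.inl h1))
          · exact Or.inl ((mem_extSub _ _ _ _ _ _).mpr (Or.inl h1))
        · have ht : b * x⁻¹ ∈ T := (hD h S hS hTS x hxS hxT b hbS).resolve_left hbT
          rcases ht0.cover _ ht with h1 | h1
          · exact Or.inr ((mem_extSub _ _ _ _ _ b).mpr (Or.inr h1))
          · left
            apply (mem_extSub _ _ _ _ _ _).mpr
            right
            have e : b * c₁ * x⁻¹ = (b * x⁻¹ * c₁) * w := by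
              have e1 : b * c₁ * x⁻¹ = b * x⁻¹ * (x * c₁ * x⁻¹) := by group
              rw [e1, hxc, hw.c₂_eq]
              group
            rw [e]
            exact (W₁ ⊔ W₂).mul_mem h1 hwT0
    · apply le_antisymm
      · rintro u ⟨huU, huT⟩
        rcases (mem_extSub _ _ _ _ _ u).mp huU with h1 | h1
        · exact h1
        · exfalso
          apply hxT
          have e : x = (u * x⁻¹)⁻¹ * u := by group
          rw [e]
          exact T.mul_mem (T.inv_mem (ht0.le h1)) huT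
      · intro u hu
        exact ⟨(mem_extSub _ _ _ _ _ u).mpr (Or.inl hu), ht0.le hu⟩

end Cfsg.Agent.Lib.Helper11.KS
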